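import Cfsg.Agent.H331.IF.E7Tor

/-!
# S5719: `E₇(q)`, `q` odd: every involution of a subgroup of small fixity gives a fundamental involution (helper331)

* `step1` : `Fix B`, `t ∈ B` an involution, `z` the involution of the root `α₁`: `∃ t' ∈ B, IsConj z t'`.
-/

set_option autoImplicit false
set_option linter.unusedSectionVars false
set_option linter.unusedVariables false
set_option maxHeartbeats 1000000

namespace Cfsg.Agent.H331.IF.E7

open CoxeterSystem Cfsg.Agent.ChevalleyStructure.CoxeterGeom Cfsg.Agent.Tits.Roots Cfsg.Agent.Tits.Core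
  Cfsg.Agent.Tits.RootComb Cfsg.Agent.Nodes.Reps Cfsg.Agent.Nodes.BNOf
  Cfsg.Agent.Nodes.RGDLib Cfsg.Agent.Nodes.Bruhat Cfsg.Agent.Nodes.Coroot Cfsg.Agent.KFacts.RgdSL
open Cfsg.Lie Cfsg.Agent.ChevalleyStructure Cfsg.Agent.ChevalleyStructure.CoxeterGeomTypes
  Cfsg.Agent.Nodes.RGDChev
open Cfsg.Agent.KFacts.RgdChevCoord (TT XX nc)
open Cfsg.Agent.H557.LrAbs Cfsg.Agent.H557.LrSgn Cfsg.Agent.H557.LrTor Cfsg.Agent.H557.LrOrb Cfsg.Agent.H557.LrIso
  Cfsg.Agent.H557.LrNF Cfsg.Agent.H557.LrMov Cfsg.Agent.H557.LrChev Cfsg.Agent.H557.LrRho Cfsg.Agent.H557.LrNon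
  Cfsg.Agent.H557.LrData Cfsg.Agent.H557.LrFam
open Cfsg.Agent.H557.LrE7 (bb om ap am tab_bb tab_cn tab_cn0 tab_om th7_comm tab_w)
open Cfsg.Agent.GenExc (csv)
open Cfsg.Agent.GenExc.Chev (zS)
open Cfsg.Agent.H974.Exc (sym_E7 J_E7 fix_of_id wJ_E7 th7 pr7 sl_E7 cf isRoot_of cpr_of)
open Cfsg.Agent.UGT.U2.FOne
open Cfsg.Agent.H190.IF (EC Inv2 psi psi_apply)
open Cfsg.Agent.H331.IF

section

variable {K : Type} [Field K] [Fintype K] (p : ℕ) [Fact p.Prime] [CharP K p] {W : Type*} [Group W] [Finite W]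
  (cs : CoxeterSystem CoxeterMatrix.E₇ W)

/-- **the nontoral involutions**, centralising the root group of the first fundamental root -/
theorem PP_N0 (hp2 : Odd p) (hZ : Subgroup.center ↥(chevE7.group K) = ⊥) {z0 : ↥(chevE7.group K)}
    (hz0 : Inv2 cs isType_E7.isCartan (TT chevE7 K) (XX chevE7 7 K) (sr 0) z0) {t : ↥(chevE7.group K)}
    (htt : t * t = 1) (ht1 : t ≠ 1) {w : W} (hw : ∀ v, rep cs isType_E7.isCartan w v = th7 v)
    (hθ : ∀ c, IsRoot cs isType_E7.isCartan c →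
      cj t (XX chevE7 7 K c) = XX chevE7 7 K (rep cs isType_E7.isCartan w c))
    (h0 : Cn t (XX chevE7 7 K) (bb 0)) : PP z0 t := by
  have R := rgd (K := K) isType_E7 cs p
  have hs := sl_E7 cs
  have hG1 := G1_eq_top (K := K) isType_E7 cs
  have hG := KFacts.RgdRigid.GG_eq_top (T := TT chevE7 K) hG1
  have hodd := (odd_card (F := K) hp2).1
  have hcard : ∀ α, IsRoot cs isType_E7.isCartan α → Nat.card (XX chevE7 7 K α) = Fintype.card K := fun α hα => by
    rw [H897.IF.card_XX isType_E7 cs hα, Nat.card_eq_fintype_card]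
  have hb : ∀ i, IsRoot cs isType_E7.isCartan (bb i) := fun i => isRoot_of isType_E7 cs (tab_bb i).1
  have hbθ : ∀ i, rep cs isType_E7.isCartan w (bb i) = bb i := fun i => by rw [hw, (tab_bb i).2]
  have hcp : ∀ {x y : Fin 7 → ℤ} {c : ℤ}, IsRoot cs isType_E7.isCartan y → cf AE x y = c →
      cpr cs isType_E7.isCartan x y = c := fun {x y c} hy h => cpr_of isType_E7 hs x hy h
  -- the root groups of the frame are centralised
  have hstep : ∀ {a c d : Fin 7 → ℤ}, IsRoot cs isType_E7.isCartan a → IsRoot cs isType_E7.isCartan c → th7 c = c →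
      cf AE c a = 1 → cf AE a (th7 a) = 0 → a + th7 a = c - d → Cn t (XX chevE7 7 K) c → Cn t (XX chevE7 7 K) d := by
    intro a c d ha hc hcθ h1 h3 h4 hcn
    have haθ := ha.act w
    rw [hw] at haθ
    have h5 := cn_step R hs htt hθ ha hc (by rw [hw, hcθ]) (by rw [hw]; exact hcp haθ h3) hcn
    rw [hw, hcp ha h1, one_smul, h4] at h5
    have : c - (c - d) = d := by abel
    rwa [this] at h5
  have hcn : ∀ i, Cn t (XX chevE7 7 K) (bb i) ∧ Cn t (XX chevE7 7 K) (-bb i) := by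
    have key : ∀ i, i ≠ 0 → Cn t (XX chevE7 7 K) (bb i) ∧ Cn t (XX chevE7 7 K) (-bb i) := by
      intro i hi
      obtain ⟨k1, k2, k3, k4, k5, k6, k7, k8⟩ := tab_cn i hi
      refine ⟨?_, ?_⟩
      · exact hstep (isRoot_of isType_E7 cs k2) (hb 0) (tab_bb 0).2 k4 k8 k6 h0
      · refine hstep (isRoot_of isType_E7 cs k1) (hb 0) (tab_bb 0).2 k3 k7 ?_ h0
        rw [k5, sub_neg_eq_add]
    intro i
    by_cases hi : i = 0
    · subst hi
      refine ⟨h0, ?_⟩
      obtain ⟨k1, k2, k3, k4, k5, k6, k7, k8⟩ := tab_cn 1 (by decide)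
      refine hstep (isRoot_of isType_E7 cs k1) (hb 1) (tab_bb 1).2 tab_cn0.1 k7 ?_ (key 1 (by decide)).1
      rw [tab_cn0.2, sub_neg_eq_add, add_comm]
    · exact key i hi
  have ht : TA cs isType_E7.isCartan (XX chevE7 7 K) t w := ⟨htt, hθ⟩
  have key : ∀ j, (∀ c ∈ prev4 bb j, IsRoot cs isType_E7.isCartan c ∧ rep cs isType_E7.isCartan w c = c) →
      Lev cs isType_E7.isCartan (XX chevE7 7 K) t w (prev4 bb j) (bb j) ∧
      (Fintype.card K ^ (2 * d4 j + 1) ≤ Nat.card (BF cs isType_E7.isCartan (XX chevE7 7 K) (prev4 bb j) (bb j) t) ∧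
      Fintype.card K ^ (2 * d4 j + 1) ≤ Nat.card (BF cs isType_E7.isCartan (XX chevE7 7 K) (prev4 bb j) (-bb j) t)) := by
    intro j hC
    obtain ⟨h2, h3, h4⟩ := tabN j
    have hC' : ∀ c ∈ prev4 bb j, IsRoot cs isType_E7.isCartan c := fun c hc => (hC c hc).1
    have hL : Lev cs isType_E7.isCartan (XX chevE7 7 K) t w (prev4 bb j) (bb j) :=
      ⟨mem_EC_of cs hC' (hb j) (tabN' j), hbθ j, (hcn j).1, (hcn j).2⟩
    refine ⟨hL, lev_mov R hs (fun α hα => H897.IF.XX_comm isType_E7 cs hα) hcard hodd ht hC' (fun c hc => (hC c hc).2)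
      hL h3 ?_ fun β hβ => mem_SF_of cs hC' (hb j) (h4 β hβ)⟩
    have e : (rsN j).map (rep cs isType_E7.isCartan w) = (rsN j).map th7 := List.map_congr_left fun β _ => hw β
    rw [e]
    exact h2
  have hbb : ∀ j, IsRoot cs isType_E7.isCartan (bb j) ∧ rep cs isType_E7.isCartan w (bb j) = bb j :=
    fun j => ⟨hb j, hbθ j⟩
  obtain ⟨a0, a1⟩ := key 0 (fun c hc => absurd hc (List.not_mem_nil))
  obtain ⟨b0, b1⟩ := key 1 (fun c hc => by
    rcases List.mem_singleton.1 hc with rfl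
    exact hbb 0)
  obtain ⟨c0, c1⟩ := key 2 (fun c hc => by
    rcases List.mem_cons.1 hc with rfl | hc
    · exact hbb 1
    rcases List.mem_singleton.1 hc with rfl
    exact hbb 0)
  obtain ⟨e0, e1⟩ := key 3 (fun c hc => by
    rcases List.mem_cons.1 hc with rfl | hc
    · exact hbb 2
    rcases List.mem_cons.1 hc with rfl | hc
    · exact hbb 1
    rcases List.mem_singleton.1 hc with rfl
    exact hbb 0)
  refine PP_of p cs hp2 hZ hz0 ht ht1
    (l := [(bb 0, 6), (bb 1, 4), (bb 2, 2), (bb 3, 0)]) ⟨a0, a1, b0, b1, c0, c1, e0, e1, trivial⟩ ?_ (by decide)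
  intro x hx
  rcases List.mem_cons.1 hx with rfl | hx
  · exact inv_word p cs hz0 (tab_om 0).1
  rcases List.mem_cons.1 hx with rfl | hx
  · exact inv_word p cs hz0 (tab_om 1).1
  rcases List.mem_cons.1 hx with rfl | hx
  · exact inv_word p cs hz0 (tab_om 2).1
  rcases List.mem_cons.1 hx with rfl | hx
  · exact inv_word p cs hz0 (tab_om 3).1
  exact absurd hx (List.not_mem_nil)

/-- **the nontoral involutions** -/
theorem PP_N (hp2 : Odd p) (hZ : Subgroup.center ↥(chevE7.group K) = ⊥) {z0 : ↥(chevE7.group K)}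
    (hz0 : Inv2 cs isType_E7.isCartan (TT chevE7 K) (XX chevE7 7 K) (sr 0) z0) {t : ↥(chevE7.group K)}
    (htt : t * t = 1) (ht1 : t ≠ 1) {w : W} (hw : ∀ v, rep cs isType_E7.isCartan w v = th7 v)
    (hθ : ∀ c, IsRoot cs isType_E7.isCartan c →
      cj t (XX chevE7 7 K c) = XX chevE7 7 K (rep cs isType_E7.isCartan w c)) : PP z0 t := by
  have R := rgd (K := K) isType_E7 cs p
  have hs := sl_E7 cs
  have hG1 := G1_eq_top (K := K) isType_E7 cs
  have hG := KFacts.RgdRigid.GG_eq_top (T := TT chevE7 K) hG1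
  have hrp := rp_of_cj R hG hθ
  obtain ⟨k1, k2, k3, k4, k5⟩ := tab_w
  have r0 := isRoot_sr cs isType_E7.isCartan 0
  have r2 := isRoot_sr cs isType_E7.isCartan 2
  have h3 : (bb 0 : Fin 7 → ℤ) = sr 0 := (tab_om 0).1.symm
  -- conjugation
  have hconj : ∀ {g : ↥(chevE7.group K)} {v : W}, Rp cs R.nsys v g →
      (∀ x, rep cs isType_E7.isCartan v (th7 x) = th7 (rep cs isType_E7.isCartan v x)) →
      ∀ {c : Fin 7 → ℤ}, IsRoot cs isType_E7.isCartan c → rep cs isType_E7.isCartan v c = sr 0 →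
      Cn t (XX chevE7 7 K) c → PP z0 t := by
    intro g v hg hv c hc hvc hcn
    obtain ⟨h4, h5⟩ := conj_step R hθ hg (fun x => by rw [hw, hw, hv]) hc hcn
    rw [hvc, ← h3] at h5
    refine PP.conj (g := g) (PP_N0 p cs hp2 hZ hz0 ?_ ?_ hw h4 h5)
    · have : g * t * g⁻¹ * (g * t * g⁻¹) = g * (t * t) * g⁻¹ := by group
      rw [this, htt, mul_one, mul_inv_cancel]
    · intro h6
      apply ht1
      have : t = g⁻¹ * (g * t * g⁻¹) * g := by group
      rw [this, h6, mul_one, inv_mul_cancel]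
  have hA : A2 cs isType_E7.isCartan (sr 0) (sr 2) := hs.a2 r0 r2 (cpr_of isType_E7 hs _ r2 k3)
  rcases cn_or_inv isType_E7 p cs hrp htt r0 (by rw [hw, k4]) with h4 | h4
  · exact hconj (v := 1) rp_one (fun x => by rw [map_one, Module.End.one_apply, Module.End.one_apply]) r0
      (by rw [map_one, Module.End.one_apply]) h4
  rcases cn_or_inv isType_E7 p cs hrp htt r2 (by rw [hw, k5]) with h5 | h5
  · refine hconj ((rp_simple cs R.nsys 2).mul (rp_simple cs R.nsys 0)) (fun x => ?_) r2 ?_ h5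
    · rw [rep_mul_apply, rep_mul_apply, th7_comm cs 0 (Or.inl rfl), th7_comm cs 2 (Or.inr rfl)]
    · rw [← k1, ← rep_word cs isType_E7.isCartan, wordProd_cons, wordProd_cons, wordProd_nil, mul_one]
  · refine hconj (rp_simple cs R.nsys 2) (fun x => th7_comm cs 2 (Or.inr rfl) x) hA.rxy ?_ (cn_add_of_inv R hA h4 h5)
    have h6 := rep_word cs isType_E7.isCartan [2] (sr 0 + sr 2)
    rw [wordProd_cons, wordProd_nil, mul_one] at h6
    exact h6.trans k2

/-- **the involutions of the torus** -/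
theorem PP_T (hp2 : Odd p) (hZ : Subgroup.center ↥(chevE7.group K) = ⊥) {z0 : ↥(chevE7.group K)}
    (hz0 : Inv2 cs isType_E7.isCartan (TT chevE7 K) (XX chevE7 7 K) (sr 0) z0) {t : ↥(chevE7.group K)}
    (ht : t ∈ TT chevE7 K) (htt : t * t = 1) (h1 : t ≠ 1) : PP z0 t := by
  have R := rgd (K := K) isType_E7 cs p
  obtain ⟨n, hn, hsg⟩ := exists_sgn isType_E7 cs p (odd_card (F := K) hp2).2 ht htt
  have key : ∀ {n : ℕ}, n < 2 ^ 7 → ∀ t : ↥(chevE7.group K),
      SgnEl cs isType_E7.isCartan (TT chevE7 K) (XX chevE7 7 K) (bits 7 n) t → t ≠ 1 → PP z0 t := by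
    intro n hn
    refine orbit_all (P := fun n => ∀ t : ↥(chevE7.group K),
      SgnEl cs isType_E7.isCartan (TT chevE7 K) (XX chevE7 7 K) (bits 7 n) t → t ≠ 1 → PP z0 t) (rm := rmE7)
      (fun j m hP t ht h1 => ?_) okL_E7 (fun m hm => ?_) hn
    · have h2 := ht.conj R (rp_simple cs R.nsys j)
      rw [bits_step cs isType_E7.isCartan okR_E7] at h2
      refine (hP _ h2 fun h3 => h1 ?_).conj
      rw [mul_inv_eq_one, mul_eq_left] at h3
      exact h3
    · have hc : ∀ m : ℕ, (18446744073709551623 : ℕ).testBit m = true → m = 0 ∨ m = 1 ∨ m = 64 ∨ m = 2 := by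
        intro m hm
        by_cases h : m < 65
        · revert hm
          revert m
          decide +kernel
        · exfalso
          rw [Nat.testBit_lt_two_pow (lt_of_lt_of_le (by norm_num : (18446744073709551623 : ℕ) < 2 ^ 65)
            (Nat.pow_le_pow_right (by norm_num) (not_lt.1 h)))] at hm
          exact absurd hm (by decide)
      intro t ht h1
      rcases hc m hm with rfl | rfl | rfl | rfl
      · exfalso
        apply h1
        refine SgnEl.unique (G1_eq_top (K := K) isType_E7 cs) hZ ht ?_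
        rw [bits_zero]
        exact SgnEl.one
      · exact PP_1 p cs hZ hz0 ht
      · exact PP_E p cs hp2 hZ hz0 ht h1
      · exact PP_A p cs hp2 hZ hz0 ht h1
  exact key hn t hsg h1

end

/-- **STEP 1 for `E₇(q)`, `q` odd.** -/
theorem step1 (K : Type) [Field K] [Fintype K] (ho : Odd (Fintype.card K)) {W : Type*} [Group W] [Finite W]
    (cs : CoxeterSystem CoxeterMatrix.E₇ W) {z0 : ↥(chevE7.group K)}
    (hz0 : Inv2 cs isType_E7.isCartan (TT chevE7 K) (XX chevE7 7 K) (sr 0) z0) {B : Subgroup ↥(chevE7.group K)}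
    (hB : H255.IFK.Fix B) {t : ↥(chevE7.group K)} (htB : t ∈ B) (ht : orderOf t = 2) : ∃ z ∈ B, IsConj z0 z := by
  have htt : t * t = 1 := by rw [← pow_two, ← ht, pow_orderOf_eq_one]
  have h1 : t ≠ 1 := by
    rintro rfl
    rw [orderOf_one] at ht
    exact absurd ht (by norm_num)
  obtain ⟨p, hpp, hpc, hp2⟩ := exists_char K ho
  have : Fact p.Prime := ⟨hpp⟩
  have hp2' : p ≠ 2 := by
    rintro rfl
    exact (by decide : ¬ Odd 2) hp2
  have hS : IsSimpleGroup ↥(Lie.chevE7.group K) ∧ ¬ IsMulCommutative ↥(Lie.chevE7.group K) := S1054.result _ (by simp)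
  have hs := hS.1
  have hZ := center_eq_bot hS
  have R := rgd (K := K) isType_E7 cs p
  have hG := G1_eq_top (K := K) isType_E7 cs
  have hGG := KFacts.RgdRigid.GG_eq_top (T := TT chevE7 K) hG
  obtain ⟨k, φ, σ, J, g, N⟩ := exists_nf_inner hp2' R hG hZ htt h1
  have hσ : ∀ i, σ i = i := by
    intro i
    exact sym_E7 ⟨σ, σ, N.σσ, N.σσ⟩ (fun i j => FFour.sigma_matrix N.φ_simple i j) i
  have h4 : k⁻¹ * t * k = k⁻¹ * t * k⁻¹⁻¹ := by rw [inv_inv]
  have htt' : k⁻¹ * t * k * (k⁻¹ * t * k) = 1 := by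
    have : k⁻¹ * t * k * (k⁻¹ * t * k) = k⁻¹ * (t * t) * k := by group
    rw [this, htt, mul_one, inv_mul_cancel]
  have h1' : k⁻¹ * t * k ≠ 1 := by
    intro h6
    apply h1
    have : t = k * (k⁻¹ * t * k) * k⁻¹ := by group
    rw [this, h6, mul_one, mul_inv_cancel]
  have hP : PP z0 (k⁻¹ * t * k) := by
    rcases J_E7 N hσ with hJ | hJ
    · have hT : k⁻¹ * t * k ∈ TT chevE7 K := mem_T_of R hGG fun c hc => fix_of_id N.nx hσ hJ hc
      exact PP_T p cs hp2 hZ hz0 hT htt' h1'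
    · have hw := wJ_E7 cs N.Jcomm hJ
      refine PP_N p cs hp2 hZ hz0 htt' h1' hw fun c hc => ?_
      have h6 := N.nx.xX_id hσ hc
      exact h6
  rw [h4] at hP
  exact hP.conj B hB htB

end Cfsg.Agent.H331.IF.E7
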